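import Mathlib
import Cfsg.Agent.CharBasics.Ortho
import Cfsg.Agent.Exceptional.QuatChar

/-!
The alternating square of the permutation character of a triply transitive group, as a signed count of fixed
ordered pairs.
-/

set_option autoImplicit false
set_option linter.style.haveILetI false
set_option linter.unusedSectionVars false

namespace CfsgLib.PrimeDegDihedral

open Cfsg CfsgLib.CharBasics
open scoped ComplexConjugate

universe u v

variable (G : Type u) [Group G] [Fintype G] (Ω : Type v) [Fintype Ω] [DecidableEq Ω] [MulAction G Ω]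

/-- Any three points go to any three points. -/
def ThreeTrans : Prop :=
  ∀ a b c a' b' c' : Ω, a ≠ b → a ≠ c → b ≠ c → a' ≠ b' → a' ≠ c' → b' ≠ c' →
    ∃ g : G, g • a = a' ∧ g • b = b' ∧ g • c = c'

variable {G Ω}

/-- The fixed points. -/
def fixSet (g : G) : Finset Ω := Finset.univ.filter fun a => g • a = a

/-- The ordered pairs whose two points are swapped. -/
def swapSet (g : G) : Finset (Ω × Ω) := Finset.univ.filter fun q => q.1 ≠ q.2 ∧ g • q.1 = q.2 ∧ g • q.2 = q.1

/-- The signed count of the fixed pairs. -/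
noncomputable def alt (Ω : Type v) [Fintype Ω] [DecidableEq Ω] [MulAction G Ω] (g : G) : ℂ :=
  ((((fixSet g : Finset Ω).offDiag.card : ℕ) : ℂ) - ((swapSet g : Finset (Ω × Ω)).card : ℕ)) / 2

theorem isClassFunction_alt : IsClassFunction G (alt Ω : G → ℂ) := by
  intro g k
  have h1 : ((fixSet (k * g * k⁻¹) : Finset Ω).offDiag).card = ((fixSet g : Finset Ω).offDiag).card := by
    rw [Finset.offDiag_card, Finset.offDiag_card]
    have : (fixSet (k * g * k⁻¹) : Finset Ω).card = (fixSet g : Finset Ω).card := by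
      refine Finset.card_bij (fun a _ => k⁻¹ • a) (fun a ha => ?_) (fun a _ b _ h => smul_left_cancel _ h)
        fun a ha => ⟨k • a, ?_, inv_smul_smul k a⟩
      · simp only [fixSet, Finset.mem_filter, Finset.mem_univ, true_and] at ha ⊢
        rw [mul_smul, mul_smul] at ha
        calc g • k⁻¹ • a = k⁻¹ • k • g • k⁻¹ • a := (inv_smul_smul _ _).symm
          _ = k⁻¹ • a := by rw [ha]
      · simp only [fixSet, Finset.mem_filter, Finset.mem_univ, true_and] at ha ⊢
        rw [mul_smul, inv_smul_smul, mul_smul, ha]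
    rw [this]
  have h2 : (swapSet (k * g * k⁻¹) : Finset (Ω × Ω)).card = (swapSet g : Finset (Ω × Ω)).card := by
    refine Finset.card_bij (fun q _ => (k⁻¹ • q.1, k⁻¹ • q.2)) (fun q hq => ?_) (fun q _ r _ h => ?_)
      fun q hq => ⟨(k • q.1, k • q.2), ?_, by simp⟩
    · simp only [swapSet, Finset.mem_filter, Finset.mem_univ, true_and] at hq ⊢
      obtain ⟨hne, h1, h2⟩ := hq
      refine ⟨fun h => hne (smul_left_cancel _ h), ?_, ?_⟩
      · rw [← h1]; simp [mul_smul]
      · conv_rhs => rw [← h2]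
        simp [mul_smul]
    · simp only [Prod.mk.injEq] at h
      exact Prod.ext (smul_left_cancel _ h.1) (smul_left_cancel _ h.2)
    · simp only [swapSet, Finset.mem_filter, Finset.mem_univ, true_and] at hq ⊢
      obtain ⟨hne, h1, h2⟩ := hq
      exact ⟨fun h => hne (smul_left_cancel _ h), by simp [mul_smul, h1], by simp [mul_smul, h2]⟩
  rw [alt, alt, h1, h2]

variable (G) in
/-- The setwise stabiliser of two points. -/
def pairStab (a b : Ω) : Subgroup G where
  carrier := {g | (g • a = a ∧ g • b = b) ∨ (g • a = b ∧ g • b = a)}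
  one_mem' := Or.inl ⟨one_smul _ _, one_smul _ _⟩
  mul_mem' := by
    rintro g h (⟨g1, g2⟩ | ⟨g1, g2⟩) (⟨h1, h2⟩ | ⟨h1, h2⟩)
    all_goals simp only [Set.mem_ofPred_eq, mul_smul, h1, h2, g1, g2, and_self, true_or, or_true]
  inv_mem' := by
    rintro g (⟨g1, g2⟩ | ⟨g1, g2⟩)
    · exact Or.inl ⟨by conv_lhs => rw [← g1, inv_smul_smul], by conv_lhs => rw [← g2, inv_smul_smul]⟩
    · exact Or.inr ⟨by conv_lhs => rw [← g2, inv_smul_smul], by conv_lhs => rw [← g1, inv_smul_smul]⟩

theorem mem_pairStab {a b : Ω} {g : G} :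
    g ∈ pairStab G a b ↔ (g • a = a ∧ g • b = b) ∨ (g • a = b ∧ g • b = a) := Iff.rfl

/-- The sign of an element of the setwise stabiliser of two points. -/
noncomputable def pairSign {a b : Ω} (hab : a ≠ b) : pairStab G a b →* ℂ where
  toFun g := if (g : G) • a = a then 1 else -1
  map_one' := by simp
  map_mul' := fun g h => by
    have hba : b ≠ a := hab.symm
    rcases mem_pairStab.1 g.2 with ⟨g1, g2⟩ | ⟨g1, g2⟩ <;> rcases mem_pairStab.1 h.2 with ⟨h1, h2⟩ | ⟨h1, h2⟩ <;>
      simp [mul_smul, g1, g2, h1, hba]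

section

variable (h3 : ThreeTrans G Ω) (hcard : 3 ≤ Fintype.card Ω)

include h3 hcard

theorem exists_two {a b a' b' : Ω} (h : a ≠ b) (h' : a' ≠ b') : ∃ g : G, g • a = a' ∧ g • b = b' := by
  obtain ⟨c, hc⟩ := Finset.exists_mem_notMem_of_card_lt_card (s := ({a, b} : Finset Ω)) (t := Finset.univ)
    (by rw [Finset.card_univ]; exact lt_of_le_of_lt Finset.card_le_two (by omega))
  obtain ⟨c', hc'⟩ := Finset.exists_mem_notMem_of_card_lt_card (s := ({a', b'} : Finset Ω)) (t := Finset.univ)
    (by rw [Finset.card_univ]; exact lt_of_le_of_lt Finset.card_le_two (by omega))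
  simp only [Finset.mem_insert, Finset.mem_singleton, not_or] at hc hc'
  obtain ⟨g, g1, g2, -⟩ := h3 a b c a' b' c' h (Ne.symm hc.2.1) (Ne.symm hc.2.2) h' (Ne.symm hc'.2.1) (Ne.symm hc'.2.2)
  exact ⟨g, g1, g2⟩

theorem card_pair_fiber {a b c d : Ω} (h : a ≠ b) (h' : c ≠ d) :
    (Finset.univ.filter fun g : G => g • a = c ∧ g • b = d).card =
      (Finset.univ.filter fun g : G => g • a = a ∧ g • b = b).card := by
  obtain ⟨k, k1, k2⟩ := exists_two h3 hcard h h'
  refine Finset.card_bij (fun g _ => k⁻¹ * g) (fun g hg => ?_) (fun g _ g' _ e => mul_left_cancel e)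
    fun g hg => ⟨k * g, ?_, inv_mul_cancel_left k g⟩
  · simp only [Finset.mem_filter, Finset.mem_univ, true_and] at hg ⊢
    constructor
    · rw [mul_smul, hg.1, ← k1, inv_smul_smul]
    · rw [mul_smul, hg.2, ← k2, inv_smul_smul]
  · simp only [Finset.mem_filter, Finset.mem_univ, true_and] at hg ⊢
    exact ⟨by rw [mul_smul, hg.1, k1], by rw [mul_smul, hg.2, k2]⟩

theorem card_triple_fiber {a b c a' b' c' : Ω} (h1 : a ≠ b) (h2 : a ≠ c) (h4 : b ≠ c) (h1' : a' ≠ b') (h2' : a' ≠ c')
    (h4' : b' ≠ c') :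
    (Finset.univ.filter fun g : G => g • a = a' ∧ g • b = b' ∧ g • c = c').card =
      (Finset.univ.filter fun g : G => g • a = a ∧ g • b = b ∧ g • c = c).card := by
  obtain ⟨k, k1, k2, k3⟩ := h3 a b c a' b' c' h1 h2 h4 h1' h2' h4'
  refine Finset.card_bij (fun g _ => k⁻¹ * g) (fun g hg => ?_) (fun g _ g' _ e => mul_left_cancel e)
    fun g hg => ⟨k * g, ?_, inv_mul_cancel_left k g⟩
  · simp only [Finset.mem_filter, Finset.mem_univ, true_and] at hg ⊢
    refine ⟨?_, ?_, ?_⟩
    · rw [mul_smul, hg.1, ← k1, inv_smul_smul]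
    · rw [mul_smul, hg.2.1, ← k2, inv_smul_smul]
    · rw [mul_smul, hg.2.2, ← k3, inv_smul_smul]
  · simp only [Finset.mem_filter, Finset.mem_univ, true_and] at hg ⊢
    exact ⟨by rw [mul_smul, hg.1, k1], by rw [mul_smul, hg.2.1, k2], by rw [mul_smul, hg.2.2, k3]⟩

theorem card_group {a b : Ω} (h : a ≠ b) :
    Fintype.card G = (Finset.univ : Finset Ω).offDiag.card *
      (Finset.univ.filter fun g : G => g • a = a ∧ g • b = b).card := by
  rw [← Finset.card_univ, Finset.card_eq_sum_card_fiberwise (f := fun g : G => (g • a, g • b))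
    (t := (Finset.univ : Finset Ω).offDiag) (fun g _ => by
      simp only [Finset.mem_coe, Finset.mem_offDiag, Finset.mem_univ, true_and]
      exact fun e => h (smul_left_cancel _ e))]
  rw [Finset.sum_congr rfl (g := fun _ => (Finset.univ.filter fun g : G => g • a = a ∧ g • b = b).card)
    (fun q hq => ?_), Finset.sum_const, smul_eq_mul]
  simp only [Finset.mem_offDiag, Finset.mem_univ, true_and] at hq
  rw [← card_pair_fiber h3 hcard h hq]
  congr 1
  ext g
  simp [Prod.ext_iff]

/-- Sums over the signed pairs. -/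
theorem sum_alt_mul {a b : Ω} (h : a ≠ b) (ψ : G → ℂ) (hψ : IsClassFunction G ψ) :
    ∑ g : G, 2 * alt Ω g * ψ g = ((Finset.univ : Finset Ω).offDiag.card : ℂ) *
      (∑ g ∈ Finset.univ.filter (fun g : G => g • a = a ∧ g • b = b), ψ g -
        ∑ g ∈ Finset.univ.filter (fun g : G => g • a = b ∧ g • b = a), ψ g) := by
  have hfix : ∀ g : G, (((fixSet g : Finset Ω).offDiag.card : ℕ) : ℂ) =
      ∑ q ∈ (Finset.univ : Finset Ω).offDiag, if g • q.1 = q.1 ∧ g • q.2 = q.2 then 1 else 0 := fun g => by
    rw [Finset.sum_boole]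
    congr 2
    ext q
    simp only [Finset.mem_offDiag, fixSet, Finset.mem_filter, Finset.mem_univ, true_and]
    tauto
  have hswap : ∀ g : G, (((swapSet g : Finset (Ω × Ω)).card : ℕ) : ℂ) =
      ∑ q ∈ (Finset.univ : Finset Ω).offDiag, if g • q.1 = q.2 ∧ g • q.2 = q.1 then 1 else 0 := fun g => by
    rw [Finset.sum_boole]
    congr 2
    ext q
    simp [swapSet]
  simp only [alt, mul_div_cancel₀ _ (two_ne_zero (α := ℂ)), hfix, hswap, ← Finset.sum_sub_distrib, Finset.sum_mul]
  rw [Finset.sum_comm, Finset.sum_congr rfl (g := fun _ =>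
    ∑ g ∈ Finset.univ.filter (fun g : G => g • a = a ∧ g • b = b), ψ g -
      ∑ g ∈ Finset.univ.filter (fun g : G => g • a = b ∧ g • b = a), ψ g) (fun q hq => ?_), Finset.sum_const,
    nsmul_eq_mul]
  simp only [Finset.mem_offDiag, Finset.mem_univ, true_and] at hq
  obtain ⟨k, k1, k2⟩ := exists_two h3 hcard h hq
  simp only [sub_mul, Finset.sum_sub_distrib, ite_mul, one_mul, zero_mul, ← Finset.sum_filter]
  have hmove : ∀ x y : Ω, ∀ x' y' : Ω, k • x' = x → k • y' = y →
      ∑ g ∈ Finset.univ.filter (fun g : G => g • q.1 = x ∧ g • q.2 = y), ψ g =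
      ∑ g ∈ Finset.univ.filter (fun g : G => g • a = x' ∧ g • b = y'), ψ g := by
    intro x y x' y' hx hy
    refine Finset.sum_bij' (fun g _ => k⁻¹ * g * k) (fun g _ => k * g * k⁻¹) (fun g hg => ?_) (fun g hg => ?_)
      (fun g _ => by simp [mul_assoc]) (fun g _ => by simp [mul_assoc]) fun g _ => ?_
    · simp only [Finset.mem_filter, Finset.mem_univ, true_and] at hg ⊢
      simp [mul_smul, k1, k2, hg.1, hg.2, inv_smul_eq_iff, hx, hy]
    · simp only [Finset.mem_filter, Finset.mem_univ, true_and] at hg ⊢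
      simp [mul_smul, ← k1, ← k2, hg.1, hg.2, hx, hy]
    · have := hψ g k⁻¹
      rw [inv_inv] at this
      exact this.symm
  rw [hmove q.1 q.2 a b k1 k2, hmove q.2 q.1 b a k2 k1]

/-- The multiplicities in the alternating square are the ones of the sign of the pair stabiliser. -/
theorem classInner_alt {a b : Ω} (h : a ≠ b) (ψ : IrrCharacter G) [Fintype (pairStab G a b)] :
    classInner (alt Ω : G → ℂ) (ψ : G → ℂ) =
      classInner (fun g => pairSign h g) (fun g : pairStab G a b => (ψ : G → ℂ) g) := by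
  classical
  set W := Finset.univ.filter fun g : G => g • a = a ∧ g • b = b with hW
  set W' := Finset.univ.filter fun g : G => g • a = b ∧ g • b = a with hW'
  have hψc : IsClassFunction G fun g => conj ((ψ : G → ℂ) g) := fun g k => by
    exact congrArg (starRingEnd ℂ) (isClassFunction (isCharacter_of_irr ψ.2) g k)
  have hdisj : Disjoint W W' := Finset.disjoint_left.2 fun g h1 h2 => by
    simp only [hW, hW', Finset.mem_filter, Finset.mem_univ, true_and] at h1 h2
    exact h (h1.1.symm.trans h2.1)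
  have hw' : W'.card = W.card := card_pair_fiber h3 hcard h (Ne.symm h)
  have hH : Nat.card (pairStab G a b) = 2 * W.card := by
    rw [Nat.card_eq_fintype_card, Fintype.card_of_subtype (W ∪ W') (fun g => by
      simp [hW, hW', mem_pairStab]), Finset.card_union_of_disjoint hdisj, hw', two_mul]
  have hR : ∑ g : pairStab G a b, pairSign h g * conj ((ψ : G → ℂ) g) =
      ∑ g ∈ W, conj ((ψ : G → ℂ) g) - ∑ g ∈ W', conj ((ψ : G → ℂ) g) := by
    rw [show ∑ g : pairStab G a b, pairSign h g * conj ((ψ : G → ℂ) g) =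
      ∑ g : pairStab G a b, (fun x : G => (if x • a = a then (1 : ℂ) else -1) * conj ((ψ : G → ℂ) x)) g from rfl,
      ← Finset.sum_subtype (W ∪ W') (fun g => by simp [hW, hW', mem_pairStab])
        (fun x : G => (if x • a = a then (1 : ℂ) else -1) * conj ((ψ : G → ℂ) x)),
      Finset.sum_union hdisj, sub_eq_add_neg, ← Finset.sum_neg_distrib]
    refine congrArg₂ (· + ·) (Finset.sum_congr rfl fun g hg => ?_) (Finset.sum_congr rfl fun g hg => ?_)
    · rw [if_pos (Finset.mem_filter.1 hg).2.1, one_mul]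
    · rw [if_neg (fun e => h (e.symm.trans (Finset.mem_filter.1 hg).2.1)), neg_one_mul]
  have hL := sum_alt_mul h3 hcard h _ hψc
  rw [classInner_eq, classInner_eq, hH, Nat.card_eq_fintype_card (α := G), card_group h3 hcard h, hR, ← hW]
  have hsum : ∑ g : G, alt Ω g * conj ((ψ : G → ℂ) g) =
      ((Finset.univ : Finset Ω).offDiag.card : ℂ) *
        (∑ g ∈ W, conj ((ψ : G → ℂ) g) - ∑ g ∈ W', conj ((ψ : G → ℂ) g)) / 2 := by
    rw [← hL, Finset.sum_div]
    exact Finset.sum_congr rfl fun g _ => by ring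
  rw [hsum]
  have hN : ((Finset.univ : Finset Ω).offDiag.card : ℂ) ≠ 0 := Nat.cast_ne_zero.2
    (Finset.card_ne_zero.2 ⟨(a, b), by simp [h]⟩)
  have hw : (W.card : ℂ) ≠ 0 := Nat.cast_ne_zero.2 (Finset.card_ne_zero.2 ⟨1, by simp [hW]⟩)
  push_cast
  field_simp

/-- The sums of the fixed point numbers over the two halves of the pair stabiliser. -/
theorem sum_fix {a b : Ω} (h : a ≠ b) :
    ∑ g ∈ Finset.univ.filter (fun g : G => g • a = a ∧ g • b = b), (fixSet g : Finset Ω).card =
        3 * (Finset.univ.filter fun g : G => g • a = a ∧ g • b = b).card ∧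
      ∑ g ∈ Finset.univ.filter (fun g : G => g • a = b ∧ g • b = a), (fixSet g : Finset Ω).card =
        (Finset.univ.filter fun g : G => g • a = a ∧ g • b = b).card := by
  set R := ((Finset.univ : Finset Ω).erase a).erase b with hR
  have hmem : ∀ c, c ∈ R ↔ c ≠ b ∧ c ≠ a := fun c => by simp [hR]
  have hsplit : ∀ F : Ω → ℕ, ∑ c, F c = F a + F b + ∑ c ∈ R, F c := fun F => by
    rw [← Finset.add_sum_erase _ _ (Finset.mem_univ a), hR,
      ← Finset.add_sum_erase ((Finset.univ : Finset Ω).erase a) F (a := b) (by simp [Ne.symm h]), add_assoc]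
  have hswapsum : ∀ P : G → Prop, [DecidablePred P] → ∑ g ∈ Finset.univ.filter P, (fixSet g : Finset Ω).card =
      ∑ c : Ω, (Finset.univ.filter fun g : G => P g ∧ g • c = c).card := fun P _ => by
    simp only [fixSet, Finset.card_filter]
    rw [Finset.sum_comm]
    refine Finset.sum_congr rfl fun c _ => ?_
    rw [Finset.sum_filter]
    exact Finset.sum_congr rfl fun g _ => by split_ifs <;> simp_all
  obtain ⟨c₀, hc₀⟩ : R.Nonempty := by
    refine Finset.card_pos.1 ?_
    rw [hR, Finset.card_erase_of_mem (by simp [Ne.symm h]), Finset.card_erase_of_mem (Finset.mem_univ _),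
      Finset.card_univ]
    omega
  obtain ⟨hcb, hca⟩ := (hmem c₀).1 hc₀
  set u := (Finset.univ.filter fun g : G => g • a = a ∧ g • b = b ∧ g • c₀ = c₀).card with hu
  have hW : (Finset.univ.filter fun g : G => g • a = a ∧ g • b = b).card = R.card * u := by
    rw [Finset.card_eq_sum_card_fiberwise (f := fun g : G => g • c₀) (t := R) (fun g hg => by
      simp only [Finset.mem_coe, Finset.mem_filter, Finset.mem_univ, true_and] at hg
      rw [Finset.mem_coe, hmem]
      exact ⟨fun e => hcb (smul_left_cancel g (e.trans hg.2.symm)),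
        fun e => hca (smul_left_cancel g (e.trans hg.1.symm))⟩),
      Finset.sum_congr rfl (g := fun _ => u) (fun c hc => ?_), Finset.sum_const, smul_eq_mul]
    obtain ⟨h1, h2⟩ := (hmem c).1 hc
    rw [hu, ← card_triple_fiber h3 hcard h (Ne.symm hca) (Ne.symm hcb) h (Ne.symm h2) (Ne.symm h1),
      Finset.filter_filter]
    simp only [and_assoc]
  constructor
  · rw [hswapsum, hsplit, hW]
    rw [Finset.sum_congr rfl (g := fun _ => u) (fun c hc => ?_), Finset.sum_const, smul_eq_mul, ← hW]
    · rw [show (Finset.univ.filter fun g : G => (g • a = a ∧ g • b = b) ∧ g • a = a) =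
          Finset.univ.filter fun g : G => g • a = a ∧ g • b = b from Finset.filter_congr fun g _ => by tauto,
        show (Finset.univ.filter fun g : G => (g • a = a ∧ g • b = b) ∧ g • b = b) =
          Finset.univ.filter fun g : G => g • a = a ∧ g • b = b from Finset.filter_congr fun g _ => by tauto]
      omega
    · obtain ⟨h1, h2⟩ := (hmem c).1 hc
      rw [hu, show (Finset.univ.filter fun g : G => (g • a = a ∧ g • b = b) ∧ g • c = c) =
          Finset.univ.filter fun g : G => g • a = a ∧ g • b = b ∧ g • c = c from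
          Finset.filter_congr fun g _ => and_assoc]
      obtain ⟨k, k1, k2, k3⟩ := h3 a b c₀ a b c h (Ne.symm hca) (Ne.symm hcb) h (Ne.symm h2) (Ne.symm h1)
      refine Finset.card_bij (fun g _ => k⁻¹ * g * k) (fun g hg => ?_) (fun g _ g' _ e => by simpa using e)
        fun g hg => ⟨k * g * k⁻¹, ?_, by simp [mul_assoc]⟩
      · simp only [Finset.mem_filter, Finset.mem_univ, true_and] at hg ⊢
        simp [mul_smul, k1, k2, k3, hg.1, hg.2.1, hg.2.2, inv_smul_eq_iff]
      · simp only [Finset.mem_filter, Finset.mem_univ, true_and] at hg ⊢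
        simp [mul_smul, inv_smul_eq_iff.2 k1.symm, inv_smul_eq_iff.2 k2.symm, inv_smul_eq_iff.2 k3.symm, hg.1, hg.2.1,
          hg.2.2, k1, k2, k3]
  · rw [hswapsum, hsplit, hW]
    have hne : ∀ c, c = a ∨ c = b → (Finset.univ.filter fun g : G => (g • a = b ∧ g • b = a) ∧ g • c = c).card = 0 := by
      rintro c (rfl | rfl) <;>
      · rw [Finset.card_eq_zero, Finset.filter_eq_empty_iff]
        rintro g - ⟨⟨h1, h2⟩, h5⟩
        first | exact h (h5.symm.trans h1) | exact h ((h2.symm.trans h5))
    rw [hne a (Or.inl rfl), hne b (Or.inr rfl), Finset.sum_congr rfl (g := fun _ => u) (fun c hc => ?_),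
      Finset.sum_const, smul_eq_mul, zero_add, zero_add]
    obtain ⟨h1, h2⟩ := (hmem c).1 hc
    rw [show (Finset.univ.filter fun g : G => (g • a = b ∧ g • b = a) ∧ g • c = c) =
        Finset.univ.filter fun g : G => g • a = b ∧ g • b = a ∧ g • c = c from
        Finset.filter_congr fun g _ => and_assoc,
      card_triple_fiber h3 hcard h (Ne.symm h2) (Ne.symm h1) (Ne.symm h) (Ne.symm h1) (Ne.symm h2), hu]
    obtain ⟨k, k1, k2, k3⟩ := h3 a b c₀ a b c h (Ne.symm hca) (Ne.symm hcb) h (Ne.symm h2) (Ne.symm h1)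
    refine Finset.card_bij (fun g _ => k⁻¹ * g * k) (fun g hg => ?_) (fun g _ g' _ e => by simpa using e)
      fun g hg => ⟨k * g * k⁻¹, ?_, by simp [mul_assoc]⟩
    · simp only [Finset.mem_filter, Finset.mem_univ, true_and] at hg ⊢
      simp [mul_smul, k1, k2, k3, hg.1, hg.2.1, hg.2.2, inv_smul_eq_iff]
    · simp only [Finset.mem_filter, Finset.mem_univ, true_and] at hg ⊢
      simp [mul_smul, inv_smul_eq_iff.2 k1.symm, inv_smul_eq_iff.2 k2.symm, inv_smul_eq_iff.2 k3.symm, hg.1, hg.2.1,
        hg.2.2, k1, k2, k3]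

end

end CfsgLib.PrimeDegDihedral
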